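import Mathlib
import Cfsg.Agent.Lib.Helper44.OElp.Defs

/-!
# OELP (S5988), package [NUMFIX]

Pure arithmetic: the right-hand side `RhsOdd d m i c` yields a good `j` for every admissible
pair `(J, D)`.
-/

set_option autoImplicit false

namespace Cfsg.Agent.Lib.Helper15.OElp

open Cfsg.Agent.Lib.Helper44.OElp

/-- The arithmetic core of [NUMFIX], with `m = c M + l`, `D = c S + k`, `2 d = D + c J`. -/
theorem numFix_core (d m i c M l S k J D : ℕ) (hm : 2 ≤ m) (hmd : m < d) (hcpos : 0 < c)
    (hml : c * M + l = m) (hlc : l < c) (hDk : c * S + k = D) (hDJ : D + c * J = 2 * d)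
    (hDm : D ≤ m) (hD0 : D = 0 → (Odd i ∨ Even J))
    (hR : (Odd i ∧ c ≤ m ∧ 0 < l ∧ l < k) ∨
      (Even i ∧ ((k = 0 ∧ (Odd (S + J) ∨ (l = 0 ∧ Odd M))) ∨
        (c ≤ m ∧ ((0 < l ∧ l < k) ∨ (0 < l ∧ l = k ∧ Odd (S + J + M)) ∨
          (l = 0 ∧ 0 < k ∧ Odd M)))))) :
    ∃ j : ℕ, c * j ≤ m ∧ j ≤ J ∧ Good i (m - c * j) D J j := by
  have hMJ : M < J := by
    have h1 : c * M < c * J := by omega
    exact Nat.lt_of_mul_lt_mul_left h1
  have std : Good i l D J M → ∃ j, c * j ≤ m ∧ j ≤ J ∧ Good i (m - c * j) D J j := by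
    intro hg
    have he0 : m - c * M = l := by omega
    exact ⟨M, by omega, by omega, by rw [he0]; exact hg⟩
  rcases hR with ⟨hio, hcm, hl0, hlk⟩ | ⟨hie, hR2⟩
  · exact std (Or.inl ⟨hl0, by omega⟩)
  · rcases hR2 with ⟨hk0, hor⟩ | ⟨him, hR3⟩
    · by_cases hspec : l = 0 ∧ Odd M
      · exact std (Or.inr (Or.inl ⟨hspec.1, hie, hspec.2⟩))
      · have hJ0 : Odd (S + J) := by
          rcases hor with h | h
          · exact h
          · exact absurd h hspec
        have hs1 : 1 ≤ S := by
          by_contra hcon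
          have hs0 : S = 0 := by omega
          subst hs0
          have hD0' : D = 0 := by omega
          rcases hD0 hD0' with h | h
          · exact (Nat.not_even_iff_odd.mpr h) hie
          · rw [zero_add] at hJ0
            exact (Nat.not_even_iff_odd.mpr hJ0) h
        have hcS : c ≤ c * S := Nat.le_mul_of_pos_right c hs1
        by_cases hl0 : l = 0
        · have hMe : Even M := by
            by_contra hcon
            exact hspec ⟨hl0, Nat.not_even_iff_odd.mp hcon⟩
          have hM1 : 1 ≤ M := by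
            by_contra hcon
            have h0 : M = 0 := by omega
            subst h0
            omega
          obtain ⟨M', rfl⟩ : ∃ M', M = M' + 1 := ⟨M - 1, by omega⟩
          rw [mul_add, mul_one] at hml
          refine ⟨M', by omega, by omega, ?_⟩
          have he : m - c * M' = c := by omega
          rw [he]
          by_cases hs2 : 2 ≤ S
          · left
            have h2 : c * 2 ≤ c * S := Nat.mul_le_mul_left c hs2
            exact ⟨hcpos, by omega⟩
          · right; right
            have hs1' : S = 1 := by omega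
            subst hs1'
            refine ⟨by omega, hie, ?_⟩
            obtain ⟨a, ha⟩ := hJ0
            obtain ⟨b, hb⟩ := hMe
            exact ⟨a + b - 1, by omega⟩
        · exact std (Or.inl ⟨by omega, by omega⟩)
    · rcases hR3 with ⟨hl0, hlk⟩ | ⟨hl0, hlk, hodd⟩ | ⟨hl0, hk0, hodd⟩
      · exact std (Or.inl ⟨hl0, by omega⟩)
      · by_cases hs0 : S = 0
        · subst hs0
          rw [zero_add] at hodd
          exact std (Or.inr (Or.inr ⟨by omega, hie, hodd⟩))
        · have hs1 : 1 ≤ S := by omega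
          have hcS : c ≤ c * S := Nat.le_mul_of_pos_right c hs1
          exact std (Or.inl ⟨hl0, by omega⟩)
      · exact std (Or.inr (Or.inl ⟨hl0, hie, hodd⟩))

theorem pkgNumFix : PkgNumFix := by
  intro d m i c hd hm hme hmd hi hc hR J D hJ hDJ hD0
  have hcpos : 0 < c := by rw [hc]; split_ifs <;> omega
  by_cases hDm : m < D
  · exact ⟨0, by omega, by omega, Or.inl ⟨by omega, by simpa using hDm⟩⟩
  push Not at hDm
  have hml : c * (m / c) + m % c = m := Nat.div_add_mod m c
  have hlc : m % c < c := Nat.mod_lt _ hcpos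
  have hkD : (2 * d) % c = D % c := by rw [← hDJ, Nat.add_mul_mod_self_left]
  have hDk : c * (D / c) + (2 * d) % c = D := by
    rw [hkD]; exact Nat.div_add_mod D c
  have hJ0eq : (2 * d) / c = D / c + J := by
    rw [← hDJ, Nat.add_mul_div_left _ _ hcpos]
  have hnk : c * ((2 * d) / c) + (2 * d) % c = 2 * d := Nat.div_add_mod (2 * d) c
  refine numFix_core d m i c (m / c) (m % c) (D / c) ((2 * d) % c) J D hm hmd hcpos hml hlc hDk
    hDJ hDm hD0 ?_
  rcases hR with h | ⟨hie, h⟩
  · exact Or.inl h
  · have hci : c = i := by rw [hc, if_pos hie]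
    rw [← hci] at h
    refine Or.inr ⟨hie, ?_⟩
    rcases h with ⟨hk0, hor⟩ | ⟨him, h3⟩
    · left
      rw [hJ0eq] at hor
      exact ⟨hk0, hor⟩
    · right
      refine ⟨him, ?_⟩
      rcases h3 with h | ⟨hl0, hlk, hodd⟩ | h
      · exact Or.inl h
      · right; left
        refine ⟨hl0, hlk, ?_⟩
        have h2 : (2 * d + m - 2 * ((2 * d) % c)) / c = D / c + J + m / c := by
          have h1 : 2 * d + m - 2 * ((2 * d) % c) = c * ((2 * d) / c + m / c) := by
            rw [mul_add]; omega
          rw [h1, Nat.mul_div_cancel_left _ hcpos, hJ0eq]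
        rw [h2] at hodd
        exact hodd
      · exact Or.inr (Or.inr h)

end Cfsg.Agent.Lib.Helper15.OElp
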